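import Cfsg.Agent.Lib.J3Mult.Data
import Cfsg.Agent.Lib.J3Mult.Cert
import Cfsg.Agent.Lib.SchurMult.PermCert
import Cfsg.Agent.Lib.SporadicB.J3.Basic

/-! The elements of the certificate inside J3 and the absence of a multiplier at `2`. -/

set_option autoImplicit false
set_option maxRecDepth 100000

namespace CfsgLib.J3Mult

open Cfsg.Spor CfsgLib.SporRecognition.CosetCert CfsgLib.SchurMult CfsgLib.SchurMult.PermCert

/-- The tables. -/
def j3Tables : Tables where
  n := 6156
  depth := 13
  ts := eltTbls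

/-- A word of the certificate in the two generators. -/
def wordOf (k : ℕ) : List ℕ := eltWords.getD k []

/-- The image of a point under a word in the two generators. -/
noncomputable def wordImg (w : List ℕ) (u : ℕ) : ℕ :=
  List.rec (fun u => u) (fun i _ ih u => CfsgLib.SporadicB.J3.Data.tab i (ih u)) w u

/-- The table agrees with the word. -/
noncomputable def wordCheck (k : ℕ) : Bool :=
  allBelow 13 6156 fun u => Nat.beq (j3Tables.img k u) (wordImg (wordOf k) u)

theorem wordCheck_ok : ∀ k < 11, wordCheck k = true := by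
  intro k hk
  interval_cases k <;> decide +kernel

theorem words_small : eltWords.all (fun w => w.all fun i => decide (i < 2)) = true := by decide +kernel

theorem colJ3_table : colJ3.tableOK = true := by decide +kernel

theorem colJ3_solved : colJ3.solvedOK = true := by decide +kernel

theorem two_ok : j3Tables.twoOK colJ3 ptsJ3 orderJ3 = true := by decide +kernel

universe v

variable {F : Type v} [Field F] [Fintype F] [CharP F 2] {ω : F} (hω : ω ^ 2 + ω + 1 = 0)

include hω in
theorem exists_realises : ∃ (σ : J3 F ω →* Equiv.Perm (Fin 6156)) (el : ℕ → J3 F ω),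
    j3Tables.Realises σ el := by
  obtain ⟨φ, hker, htrans, -, htab, -⟩ := CfsgLib.SporadicB.J3.exists_phi (F := F) hω
  haveI := (CfsgLib.SporadicB.J3.isJ3_quotient (F := F) hω).1
  obtain ⟨_, -, -, -, -, hc3⟩ := CfsgLib.SporadicB.J3.j3_main (F := F) hω
  obtain ⟨z, hzK, hzc, hzo, -⟩ := CfsgLib.SporadicB.J3.exists_scalar (F := F) hω
  have hcen : Subgroup.center (threeJ3 F ω) ≤ φ.ker := by
    have heq : Subgroup.zpowers z = Subgroup.center (threeJ3 F ω) :=
      Subgroup.eq_of_le_of_card_ge (Subgroup.zpowers_le.2 hzc) (by rw [hc3, Nat.card_zpowers, hzo])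
    rw [← heq, Subgroup.zpowers_le, hker]
    intro g
    rw [Subgroup.mem_center_iff.mp hzc g, mul_inv_cancel_right]
    exact hzK
  let ψ : J3 F ω →* Equiv.Perm (Fin 6156) := QuotientGroup.lift _ φ hcen
  choose g _ hg using fun a : Fin 2 => CfsgLib.SporadicB.J3.mem_genSet_of (F := F) hω a a.2
  let q : ℕ → J3 F ω := fun i => QuotientGroup.mk (g ⟨i % 2, Nat.mod_lt _ (by norm_num)⟩)
  have himg : ∀ w : List ℕ, (∀ i ∈ w, i < 2) → ∀ u : Fin 6156,
      ((ψ (lprod q w) u : Fin 6156) : ℕ) = wordImg w u := by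
    intro w
    induction w with
    | nil => intro _ u; simp [lprod, wordImg]
    | cons i w ih =>
      intro hw u
      have hi := hw i List.mem_cons_self
      rw [lprod, map_mul, Equiv.Perm.mul_apply]
      show ((φ (g ⟨i % 2, _⟩) (ψ (lprod q w) u) : Fin 6156) : ℕ) = CfsgLib.SporadicB.J3.Data.tab i (wordImg w u)
      rw [htab i _ hi (by rw [hg]; simp only [Nat.mod_eq_of_lt hi]),
        ih (fun j hj => hw j (List.mem_cons_of_mem _ hj))]
  refine ⟨ψ, fun k => lprod q (wordOf k), ⟨rfl, ?_, fun k hk u => ?_⟩⟩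
  · rw [← MonoidHom.ker_eq_bot_iff]
    refine (Subgroup.Normal.eq_bot_or_eq_top (H := ψ.ker) inferInstance).resolve_right fun htop => ?_
    obtain ⟨y, hy⟩ := htrans 1
    have h1 : φ y = 1 := MonoidHom.mem_ker.1 (show (QuotientGroup.mk y : J3 F ω) ∈ ψ.ker by rw [htop]; exact Subgroup.mem_top _)
    rw [h1] at hy
    exact absurd (congrArg Fin.val hy) (by decide)
  · have hk' : k < 11 := hk
    have hs : ∀ i ∈ wordOf k, i < 2 := by
      have h := words_small
      simp only [List.all_eq_true, decide_eq_true_eq] at h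
      have hkl : k < eltWords.length := lt_of_lt_of_eq hk' (by decide +kernel)
      rw [wordOf, List.getD_eq_getElem _ _ hkl]
      exact fun i hi => h _ (List.getElem_mem hkl) i hi
    rw [himg _ hs u]
    exact (Nat.eq_of_beq_eq_true (allBelow_spec (wordCheck_ok k hk') u u.2)).symm

include hω in
/-- No multiplier at `2`. -/
theorem not_two_dvd (Γ : Type v) [Group Γ] [Finite Γ] (τ : Γ →* J3 F ω) (hτ : Cfsg.IsStemExtension τ) :
    ¬ 2 ∣ Nat.card τ.ker := by
  obtain ⟨σ, el, hR⟩ := exists_realises (F := F) hω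
  exact hR.not_two_dvd two_ok colJ3_table colJ3_solved
    ⟨392445, by norm_num, by rw [(CfsgLib.SporadicB.J3.isJ3_quotient (F := F) hω).2]; rfl⟩ Γ τ hτ

end CfsgLib.J3Mult
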